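import Mathlib
import Cfsg.Agent.H644.Brauer
import Cfsg.Agent.Blocks.Fong
import Cfsg.Agent.Characters.Clifford
import Cfsg.Agent.H646.UCov
import Cfsg.Agent.Blocks.Knorr
import Cfsg.Agent.S0914

/-!
# Characters over an invariant character of a normal subgroup of order prime to `p`

`K` is normal in `G` of order prime to `p`, `θ` an irreducible character of `K` fixed by `G`.

* `isPBlock_singleton`: `{θ}` is a block of `K`;
* `idem_lyingOver`: the idempotent of `Irr(G | θ)` is the one of `{θ}`;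
* `isUnion_lyingOver`: `Irr(G | θ)` is a union of blocks;
* `isDefectClass_one`: if it is a block, the class of `1` is a defect class.
-/

set_option autoImplicit false

namespace Cfsg.Agent.H646.OverPrime

open Cfsg Cfsg.Agent.H644 Cfsg.Agent.Blocks.Local Cfsg.Agent.Blocks.MinMax
open Cfsg.Agent.Blocks.Fong (cj cj_apply cj_cj cj_one cj_apply_one lyingOver mem_lyingOver)

universe u

variable {G : Type u} [Group G] {p : ℕ} [Fact p.Prime] {M : Ideal AlgInt}

theorem blockOf_eq_singleton [Finite G] (hM : IsPModular p M) (hG : ¬ p ∣ Nat.card G)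
    (θ : IrrCharacter G) : blockOf M (θ : G → ℂ) = {θ} := by
  refine (S0914.result p M hM θ).mp fun h => hG (h.trans ?_)
  exact Nat.div_dvd_of_dvd (Blocks.Knorr.charDegree_dvd θ.2)

theorem isPBlock_singleton [Finite G] (hM : IsPModular p M) (hG : ¬ p ∣ Nat.card G)
    (θ : IrrCharacter G) : IsPBlock M ({θ} : Set (IrrCharacter G)) :=
  ⟨θ, (blockOf_eq_singleton hM hG θ).symm⟩

theorem blockCoeff_singleton_one [Finite G] (θ : IrrCharacter G) :
    blockCoeff ({θ} : Set (IrrCharacter G)) 1 =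
      (Nat.card G : ℂ)⁻¹ * (charDegree (θ : G → ℂ) : ℂ) ^ 2 := by
  rw [Blocks.Basic.blockCoeff_def, finsum_mem_singleton, Blocks.Knorr.charDegree_eq θ.2,
    Complex.conj_natCast, pow_two]

theorem not_memLocalIdeal_one [Finite G] (hM : IsPModular p M) (hG : ¬ p ∣ Nat.card G)
    (θ : IrrCharacter G) : ¬ MemLocalIdeal M (blockCoeff ({θ} : Set (IrrCharacter G)) 1) := by
  have := hM.2.1.isPrime
  intro h
  rw [blockCoeff_singleton_one] at h
  have h1 := memLocalIdeal_mul_left (memLocalRing_natCast (M := M) (Nat.card G)) h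
  rw [mul_inv_cancel_left₀ (Nat.cast_ne_zero.mpr Nat.card_pos.ne'), ← Nat.cast_pow,
    memLocalIdeal_natCast_iff hM] at h1
  exact hG (((Fact.out : p.Prime).dvd_of_dvd_pow h1).trans (Blocks.Knorr.charDegree_dvd θ.2))

variable (K : Subgroup G) [hKn : K.Normal]

section

variable [Fintype G] [Fintype K]

/-- Constituents over an invariant character. -/
theorem eq_of_constituent {θ : IrrCharacter K} (hinv : ∀ g : G, cj K g θ = θ)
    {χ : IrrCharacter G} (hχ : classInner (fun n : K => (χ : G → ℂ) n) (θ : K → ℂ) ≠ 0)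
    {ψ : IrrCharacter K} (hψ : classInner (fun n : K => (χ : G → ℂ) n) (ψ : K → ℂ) ≠ 0) :
    ψ = θ := by
  obtain ⟨g, hg⟩ := Characters.Clifford.exists_conj_of_constituents K χ.2 θ.2 ψ.2 hχ hψ
  rw [← hinv g]
  apply Subtype.ext
  rw [hg]
  funext n
  rw [cj_apply]
  rfl

open scoped Classical in
theorem blockCoeff_lyingOver {θ : IrrCharacter K} (hinv : ∀ g : G, cj K g θ = θ) (g : G) :
    blockCoeff (lyingOver K {θ}) g =
      if h : g ∈ K then blockCoeff ({θ} : Set (IrrCharacter K)) ⟨g, h⟩ else 0 := by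
  have hcl : ∀ χ ∈ lyingOver K {θ}, ∀ ψ : IrrCharacter K,
      classInner (fun n : K => (χ : G → ℂ) n) (ψ : K → ℂ) ≠ 0 →
        ψ ∈ ({θ} : Set (IrrCharacter K)) := by
    intro χ hχ ψ hψ
    rw [mem_lyingOver] at hχ
    obtain ⟨θ', hθ', h⟩ := hχ
    obtain rfl := Set.mem_singleton_iff.mp hθ'
    exact Set.mem_singleton_iff.mpr (eq_of_constituent K hinv h hψ)
  have hinv' : ∀ (g : G) (θ' : IrrCharacter K), θ' ∈ ({θ} : Set (IrrCharacter K)) →
      cj K g θ' ∈ ({θ} : Set (IrrCharacter K)) := by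
    intro g θ' hθ'
    rw [Set.mem_singleton_iff.mp hθ', hinv g]
    exact Set.mem_singleton θ
  exact Blocks.Fong.blockCoeff_lyingOver K {θ} hinv' hcl g

variable [M.IsPrime]

theorem idem_lyingOver {θ : IrrCharacter K} (hinv : ∀ g : G, cj K g θ = θ) :
    idem M (lyingOver K {θ}) = emb K (idem M ({θ} : Set (IrrCharacter K))) := by
  classical
  refine ext_coeff fun g => ?_
  rw [coeff_idem, blockCoeff_lyingOver K hinv]
  by_cases hg : g ∈ K
  · rw [dif_pos hg, coeff_emb_of_mem _ hg, coeff_idem]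
  · rw [dif_neg hg, coeff_emb_of_notMem _ hg, redC_zero]

theorem memLocalRing_blockCoeff (hM : IsPModular p M) (hK : ¬ p ∣ Nat.card K) {θ : IrrCharacter K}
    (hinv : ∀ g : G, cj K g θ = θ) (g : G) : MemLocalRing M (blockCoeff (lyingOver K {θ}) g) := by
  classical
  rw [blockCoeff_lyingOver K hinv]
  by_cases hg : g ∈ K
  · rw [dif_pos hg]
    exact H644.memLocalRing_blockCoeff hM (isUnion_of_isPBlock (isPBlock_singleton hM hK θ)) _
  · rw [dif_neg hg]
    exact memLocalRing_zero

open scoped Classical in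
theorem lam_lyingOver (hM : IsPModular p M) (hK : ¬ p ∣ Nat.card K) {θ : IrrCharacter K}
    (hinv : ∀ g : G, cj K g θ = θ) (χ : IrrCharacter G) :
    lam M (χ : G → ℂ) (idem M (lyingOver K {θ})) = if χ ∈ lyingOver K {θ} then 1 else 0 := by
  rw [idem, lam_toK χ.2 (isClassFunction_blockCoeff _) (memLocalRing_blockCoeff K hM hK hinv),
    omega_blockCoeff]
  split_ifs
  · exact redC_one
  · exact redC_zero

theorem lam_eq_one_iff (hM : IsPModular p M) (hK : ¬ p ∣ Nat.card K) {θ : IrrCharacter K}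
    (hinv : ∀ g : G, cj K g θ = θ) (χ : IrrCharacter G) :
    lam M (χ : G → ℂ) (idem M (lyingOver K {θ})) = 1 ↔ χ ∈ lyingOver K {θ} := by
  classical
  rw [lam_lyingOver K hM hK hinv]
  split_ifs with h <;> simp [h]

/-- `Irr(G | θ)` is a union of blocks. -/
theorem isUnion_lyingOver (hM : IsPModular p M) (hK : ¬ p ∣ Nat.card K) {θ : IrrCharacter K}
    (hinv : ∀ g : G, cj K g θ = θ) : IsUnion M (lyingOver K {θ} : Set (IrrCharacter G)) := by
  have h : suppSet M (idem M (lyingOver K {θ} : Set (IrrCharacter G))) = lyingOver K {θ} := by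
    ext χ
    exact lam_eq_one_iff K hM hK hinv χ
  rw [← h]
  exact isUnion_suppSet _

/-- If `Irr(G | θ)` is a block then the class of `1` is a defect class. -/
theorem isDefectClass_one (hM : IsPModular p M) (hK : ¬ p ∣ Nat.card K) {θ : IrrCharacter K}
    (hinv : ∀ g : G, cj K g θ = θ) :
    IsDefectClass M (lyingOver K {θ} : Set (IrrCharacter G)) 1 := by
  classical
  refine ⟨memLocalRing_blockCoeff K hM hK hinv 1, ?_, fun χ _ => ?_⟩
  · rw [blockCoeff_lyingOver K hinv, dif_pos K.one_mem]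
    exact not_memLocalIdeal_one hM hK θ
  · rw [Blocks.Basic.centralChar_one (Blocks.Basic.irr_one_ne_zero χ.2)]
    exact Blocks.Fong.not_lideal_one

end

end Cfsg.Agent.H646.OverPrime
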