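import Mathlib
import Cfsg.Agent.Lib.ThompsonPQ
import Cfsg.Agent.Lib.CoprimeCommutator

/-!
# Group theory of `p`-constrained groups needed for their blocks

`K` normal of order prime to `p`, `L = K Q` normal, `Q` a `p`-group with `C_G(Q) ≤ L`.

* `mem_of_centralizes`: `R` a `p`-group normalizing `Q`; an element of order prime to `p` of
  `C_G(R)` centralizing `C_Q(R)` lies in `K`.
* `exists_conj_normalized`: every `p`-group `R` normalizes some conjugate of `Q`.
-/

set_option autoImplicit false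
set_option linter.unusedSectionVars false

namespace Cfsg.Agent.H646.PConstrGrp

variable {G : Type*} [Group G] [Finite G] {p : ℕ} [Fact p.Prime]

theorem coprime_orderOf_card {Q : Subgroup G} (hQ : IsPGroup p Q) {x : G}
    (hx : (orderOf x).Coprime p) (hxQ : x ∈ Q) : x = 1 := by
  obtain ⟨k, hk⟩ := hQ ⟨x, hxQ⟩
  have h1 : x ^ p ^ k = 1 := by
    have := congrArg (fun z : Q => (z : G)) hk
    simpa using this
  have h2 := orderOf_dvd_of_pow_eq_one h1
  have h3 : orderOf x = 1 := Nat.eq_one_of_dvd_coprimes (hx.pow_right k) dvd_rfl h2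
  exact orderOf_eq_one_iff.mp h3

/-- An element of the `p`-group `Q` in the `p'`-group `K` is trivial. -/
theorem eq_one_of_mem {K Q : Subgroup G} (hK : ¬ p ∣ Nat.card K) (hQ : IsPGroup p Q) {x : G}
    (hx : x ∈ K) (hxQ : x ∈ Q) : x = 1 := by
  refine coprime_orderOf_card hQ ?_ hxQ
  have h1 : orderOf x ∣ Nat.card K := by
    have := orderOf_dvd_natCard (⟨x, hx⟩ : K)
    rwa [Subgroup.orderOf_mk] at this
  exact Nat.Coprime.coprime_dvd_left h1 ((Nat.Prime.coprime_iff_not_dvd Fact.out).2 hK).symm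

/-- The `P × Q` lemma in the quotient. -/
theorem mem_of_centralizes {K L Q R : Subgroup G} [K.Normal] [L.Normal]
    (hK : ¬ p ∣ Nat.card K) (hQ : IsPGroup p Q) (hL : L = K ⊔ Q) (hR : IsPGroup p R)
    (hRQ : R ≤ Subgroup.normalizer (Q : Set G))
    (hC : Subgroup.centralizer (Q : Set G) ≤ L) {x : G}
    (hxR : x ∈ Subgroup.centralizer (R : Set G)) (hx : (orderOf x).Coprime p)
    (hxQ : ∀ u ∈ Q, u ∈ Subgroup.centralizer (R : Set G) → x * u = u * x) : x ∈ K := by
  classical
  let π : G →* G ⧸ K := QuotientGroup.mk' K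
  have hker : ∀ g : G, π g = 1 ↔ g ∈ K := fun g => QuotientGroup.eq_one_iff g
  have hLmap : L.map π = Q.map π := by
    rw [hL, Subgroup.map_sup]
    have : K.map π = ⊥ := by
      rw [Subgroup.map_eq_bot_iff]
      intro k hk
      exact (hker k).mpr hk
    rw [this, bot_sup_eq]
  have hnorm : (Q.map π).Normal := by
    rw [← hLmap]
    exact ‹L.Normal›.map π (QuotientGroup.mk'_surjective K)
  have key : (Subgroup.zpowers x).map π ≤ Subgroup.centralizer ((Q.map π : Subgroup (G ⧸ K)) :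
      Set (G ⧸ K)) := by
    refine Lib.ThompsonPQ.thompson_p_times_q p (R.map π) ((Subgroup.zpowers x).map π) (Q.map π)
      (hR.map π) ?_ (hQ.map π) ?_ ?_ ?_ ?_
    · rw [MonoidHom.map_zpowers, Nat.card_zpowers]
      exact Nat.Coprime.coprime_dvd_left (orderOf_map_dvd π x) hx
    · rintro _ ⟨r, hr, rfl⟩
      rw [Subgroup.mem_centralizer_iff]
      rintro _ ⟨y, hy, rfl⟩
      obtain ⟨n, rfl⟩ := Subgroup.mem_zpowers_iff.mp hy
      rw [← map_mul, ← map_mul]
      have h1 : Commute x r := (Subgroup.mem_centralizer_iff.mp hxR r hr).symm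
      rw [(h1.zpow_left n).eq]
    · exact (Subgroup.map_mono hRQ).trans (Subgroup.le_normalizer_map π)
    · rw [Subgroup.normalizer_eq_top_iff.mpr hnorm]
      exact le_top
    · rintro _ ⟨⟨u, hu, rfl⟩, huR⟩
      have h1 : u ∈ Subgroup.centralizer (R : Set G) := by
        rw [Subgroup.mem_centralizer_iff]
        intro r hr
        have h2 := Subgroup.mem_centralizer_iff.mp huR (π r) ⟨r, hr, rfl⟩
        have h3 : r * u * r⁻¹ * u⁻¹ ∈ K := by
          rw [← hker, map_mul, map_mul, map_mul, map_inv, map_inv, h2]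
          group
        have h4 : r * u * r⁻¹ * u⁻¹ ∈ Q :=
          Q.mul_mem ((Subgroup.mem_normalizer_iff.mp (hRQ hr) u).mp hu) (Q.inv_mem hu)
        have h5 := eq_one_of_mem hK hQ h3 h4
        rw [mul_inv_eq_one, mul_inv_eq_iff_eq_mul] at h5
        exact h5
      rw [Subgroup.mem_centralizer_iff]
      rintro _ ⟨y, hy, rfl⟩
      obtain ⟨n, rfl⟩ := Subgroup.mem_zpowers_iff.mp hy
      have h2 : Commute x u := hxQ u hu h1
      rw [← map_mul, ← map_mul, (h2.zpow_left n).eq]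
  have h1 : ∀ a ∈ Q, x⁻¹ * (a * x * a⁻¹) ∈ K := by
    intro a ha
    rw [← hker, map_mul, map_inv, map_mul, map_mul, map_inv]
    have h2 := Subgroup.mem_centralizer_iff.mp (key ⟨x, Subgroup.mem_zpowers x, rfl⟩) (π a)
      ⟨a, ha, rfl⟩
    rw [h2]
    group
  obtain ⟨c, hc, hcK⟩ := Lib.CoprimeCommutator.exists_fixed_in_coset p Q K hQ
    (by rw [Subgroup.normalizer_eq_top_iff.mpr ‹K.Normal›]; exact le_top) hK x h1
  have hKL : K ≤ L := by rw [hL]; exact le_sup_left
  have hxL : x ∈ L := by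
    have := L.mul_mem (hC hc) (L.inv_mem (hKL hcK))
    rwa [show c * (x⁻¹ * c)⁻¹ = x by group] at this
  rw [← hker]
  refine coprime_orderOf_card (hQ.map π) (Nat.Coprime.coprime_dvd_left (orderOf_map_dvd π x) hx) ?_
  rw [← hLmap]
  exact ⟨x, hxL, rfl⟩

/-- Every `p`-group normalizes a conjugate of `Q`, `Q` Sylow in the normal subgroup `L`. -/
theorem exists_conj_normalized {L Q R : Subgroup G} [L.Normal] (hQL : Q ≤ L) (hQ : IsPGroup p Q)
    (hQS : ¬ p ∣ Q.relIndex L) (hR : IsPGroup p R) :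
    ∃ g : G, R ≤ Subgroup.normalizer ((Q.map (MulAut.conj g).toMonoidHom : Subgroup G) : Set G) := by
  obtain ⟨S₀, hS₀⟩ := hQ.exists_le_sylow
  obtain ⟨S, hS⟩ := hR.exists_le_sylow
  have h1 : (S₀ : Subgroup G) ⊓ L = Q := by
    have h2 : Q ≤ (S₀ : Subgroup G) ⊓ L := le_inf hS₀ hQL
    have h3 : IsPGroup p ((S₀ : Subgroup G) ⊓ L : Subgroup G) := S₀.2.to_le inf_le_left
    refine (Subgroup.relIndex_eq_one.mp ?_).antisymm h2
    have h4 : Q.relIndex ((S₀ : Subgroup G) ⊓ L) ∣ Q.relIndex L := by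
      have := Subgroup.relIndex_mul_relIndex Q ((S₀ : Subgroup G) ⊓ L) L h2 inf_le_right
      rw [← this]
      exact dvd_mul_right _ _
    obtain ⟨n, hn⟩ := (IsPGroup.iff_card.mp h3)
    have h5 : Q.relIndex ((S₀ : Subgroup G) ⊓ L) ∣ p ^ n := by
      rw [← hn]
      exact Subgroup.relIndex_dvd_card Q _
    obtain ⟨i, -, hi⟩ := (Nat.dvd_prime_pow (Fact.out : p.Prime)).mp h5
    rcases Nat.eq_zero_or_pos i with h0 | h0
    · rw [hi, h0, pow_zero]
    · exact absurd ((dvd_pow_self p h0.ne').trans (hi ▸ h4)) hQS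
  obtain ⟨g, hg⟩ := MulAction.exists_smul_eq G S₀ S
  refine ⟨g, ?_⟩
  have h2 : ((S₀ : Subgroup G)).map (MulAut.conj g).toMonoidHom = (S : Subgroup G) := by
    rw [← hg]
    rfl
  have h3 : Q.map (MulAut.conj g).toMonoidHom = (S : Subgroup G) ⊓ L := by
    rw [← h1, Subgroup.map_inf _ _ _ (MulAut.conj g).injective, h2]
    congr 1
    ext x
    rw [Subgroup.mem_map_equiv, MulAut.conj_symm_apply]
    constructor
    · intro hx
      have := ‹L.Normal›.conj_mem _ hx g
      simpa [mul_assoc] using this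
    · intro hx
      have := ‹L.Normal›.conj_mem _ hx g⁻¹
      simpa [mul_assoc] using this
  rw [h3]
  intro r hr
  rw [Subgroup.mem_normalizer_iff]
  intro x
  have hrS := hS hr
  constructor
  · rintro ⟨hx1, hx2⟩
    exact ⟨(S : Subgroup G).mul_mem ((S : Subgroup G).mul_mem hrS hx1) ((S : Subgroup G).inv_mem hrS),
      ‹L.Normal›.conj_mem _ hx2 r⟩
  · rintro ⟨hx1, hx2⟩
    have e1 := (S : Subgroup G).mul_mem ((S : Subgroup G).mul_mem
      ((S : Subgroup G).inv_mem hrS) hx1) hrS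
    have e2 := ‹L.Normal›.conj_mem _ hx2 r⁻¹
    refine ⟨?_, ?_⟩
    · rwa [show r⁻¹ * (r * x * r⁻¹) * r = x by group] at e1
    · simpa [mul_assoc] using e2

end Cfsg.Agent.H646.PConstrGrp
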