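import Mathlib
import Cfsg.Agent.H644.Pairs
import Cfsg.Agent.H648.CoverAlg
import Cfsg.Agent.H649.PairInduced
import Cfsg.Agent.H646.PConstrGrp
import Cfsg.Agent.Blocks.PRegular
import Cfsg.Agent.Lib.CoprimeCommutator

/-!
# Brauer images of the idempotent of an invariant character of a normal `p'`-subgroup

`K` is a normal subgroup of `G` of order prime to `p`, `R` is a `p`-subgroup.

* `exists_lift`: `(C_K(R))`-invariant elements of `k[C_G(R)]` supported on `K` are images under the
  Brauer map of elements supported on `K` and invariant under `K` and `R`;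
* `exists_nil`: on the image of the idempotent of a block `{θ}` of `K` such elements are scalars up
  to nilpotent elements.
-/

set_option autoImplicit false
set_option linter.unusedSectionVars false

open Cfsg

namespace Cfsg.Agent.H646.PConstr

open Cfsg.Agent.H644 Cfsg.Agent.Blocks.Local

universe u

section Grp

variable {G : Type u} [Group G] [Finite G] {p : ℕ} [Fact p.Prime]

/-- Elements of `C_G(R)` conjugate under `K` are conjugate under `C_K(R)`. -/
theorem exists_conj_centralizer {K R : Subgroup G} [hKn : K.Normal] (hK : ¬ p ∣ Nat.card K)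
    (hR : IsPGroup p R) {x y k : G} (hx : x ∈ Subgroup.centralizer (R : Set G))
    (hy : y ∈ Subgroup.centralizer (R : Set G)) (hk : k ∈ K) (h : k * x * k⁻¹ = y) :
    ∃ c ∈ K, c ∈ Subgroup.centralizer (R : Set G) ∧ c * x * c⁻¹ = y := by
  have hN : ¬ p ∣ Nat.card (K ⊓ Subgroup.centralizer ({x} : Set G) : Subgroup G) := fun hd =>
    hK (hd.trans (Subgroup.card_dvd_of_le inf_le_left))
  have hRN : R ≤ Subgroup.normalizer ((K ⊓ Subgroup.centralizer ({x} : Set G) : Subgroup G) :
      Set G) := by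
    have key : ∀ r ∈ R, ∀ g ∈ K ⊓ Subgroup.centralizer ({x} : Set G),
        r * g * r⁻¹ ∈ K ⊓ Subgroup.centralizer ({x} : Set G) := by
      rintro r hr g ⟨hg1, hg2⟩
      replace hg2 : g * x = x * g := Subgroup.mem_centralizer_singleton_iff.mp hg2
      refine Subgroup.mem_inf.mpr ⟨hKn.conj_mem _ hg1 r, ?_⟩
      rw [Subgroup.mem_centralizer_singleton_iff]
      have h1 : r * x = x * r := Subgroup.mem_centralizer_iff.mp hx r hr
      have h2 : r⁻¹ * x = x * r⁻¹ := by
        rw [inv_mul_eq_iff_eq_mul, ← mul_assoc, h1, mul_inv_cancel_right]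
      calc r * g * r⁻¹ * x = r * g * (r⁻¹ * x) := by group
        _ = r * (g * x) * r⁻¹ := by rw [h2]; group
        _ = (r * x) * g * r⁻¹ := by rw [hg2]; group
        _ = x * (r * g * r⁻¹) := by rw [h1]; group
    intro r hr
    rw [Subgroup.mem_normalizer_iff]
    intro g
    refine ⟨key r hr g, fun hg => ?_⟩
    have := key r⁻¹ (R.inv_mem hr) _ hg
    rwa [show r⁻¹ * (r * g * r⁻¹) * r⁻¹⁻¹ = g by group] at this
  obtain ⟨c, hc, hc2⟩ := Lib.CoprimeCommutator.exists_fixed_in_coset p R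
    (K ⊓ Subgroup.centralizer ({x} : Set G)) hR hRN hN k (fun a ha => by
      refine Subgroup.mem_inf.mpr ⟨?_, ?_⟩
      · exact K.mul_mem (K.inv_mem hk) (hKn.conj_mem _ hk a)
      · rw [Subgroup.mem_centralizer_singleton_iff]
        have h1 : a * x = x * a := Subgroup.mem_centralizer_iff.mp hx a ha
        have h2 : a * y = y * a := Subgroup.mem_centralizer_iff.mp hy a ha
        have h1' : a⁻¹ * x = x * a⁻¹ := by
          rw [inv_mul_eq_iff_eq_mul, ← mul_assoc, h1, mul_inv_cancel_right]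
        have h3 : k * x = y * k := by rw [← h]; group
        have h4 : x * k⁻¹ = k⁻¹ * y := by rw [← h]; group
        calc k⁻¹ * (a * k * a⁻¹) * x = k⁻¹ * a * k * (a⁻¹ * x) := by group
          _ = k⁻¹ * a * (k * x) * a⁻¹ := by rw [h1']; group
          _ = k⁻¹ * (a * y) * k * a⁻¹ := by rw [h3]; group
          _ = (k⁻¹ * y) * a * k * a⁻¹ := by rw [h2]; group
          _ = x * (k⁻¹ * (a * k * a⁻¹)) := by rw [← h4]; group)
  refine ⟨c, ?_, hc, ?_⟩
  · have := K.mul_mem hk hc2.1
    rwa [mul_inv_cancel_left] at this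
  · have h1 := Subgroup.mem_centralizer_singleton_iff.mp hc2.2
    have h2 : c = k * (k⁻¹ * c) := by group
    rw [h2]
    calc k * (k⁻¹ * c) * x * (k * (k⁻¹ * c))⁻¹ = k * ((k⁻¹ * c) * x) * (k⁻¹ * c)⁻¹ * k⁻¹ := by group
      _ = k * x * k⁻¹ := by rw [h1]; group
      _ = y := h

end Grp

section Alg

variable {k : Type*} [Field k] {G : Type u} [Group G] [Finite G] {p : ℕ} [Fact p.Prime]

theorem exists_lift {K R : Subgroup G} [hKn : K.Normal] (hK : ¬ p ∣ Nat.card K)
    (hR : IsPGroup p R) (w : MonoidAlgebra k (Subgroup.centralizer (R : Set G)))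
    (hw : ∀ h : Subgroup.centralizer (R : Set G), (h : G) ∉ K → w.coeff h = 0)
    (hw' : ∀ h c : Subgroup.centralizer (R : Set G), (c : G) ∈ K →
      w.coeff (c * h * c⁻¹) = w.coeff h) :
    ∃ z : MonoidAlgebra k G, (∀ g, g ∉ K → z.coeff g = 0) ∧ IsInv K z ∧ IsInv R z ∧
      br R z = w := by
  classical
  let H := Subgroup.centralizer (R : Set G)
  let P : G → H → Prop := fun g y => (y : G) ∈ K ∧ ∃ κ ∈ K, g = κ * y * κ⁻¹
  let z : MonoidAlgebra k G := mkA fun g => if h : ∃ y : H, P g y then w.coeff h.choose else 0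
  have hz : ∀ (g : G) (y : H), P g y → z.coeff g = w.coeff y := by
    intro g y hy
    have hex : ∃ y : H, P g y := ⟨y, hy⟩
    show (if h : ∃ y : H, P g y then w.coeff h.choose else 0) = _
    rw [dif_pos hex]
    obtain ⟨hy1, κ, hκ, hg⟩ := hy
    obtain ⟨hy1', κ', hκ', hg'⟩ := hex.choose_spec
    obtain ⟨c, hcK, hcR, hc⟩ := exists_conj_centralizer hK hR y.2 hex.choose.2
      (K.mul_mem (K.inv_mem hκ') hκ) (by
        rw [← mul_left_cancel_iff (a := κ'), ← mul_right_cancel_iff (a := κ'⁻¹)]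
        rw [← hg', hg]
        group)
    have h1 : hex.choose = (⟨c, hcR⟩ : H) * y * (⟨c, hcR⟩ : H)⁻¹ := by
      apply Subtype.ext
      exact hc.symm
    rw [h1]
    exact hw' y ⟨c, hcR⟩ hcK
  have hz0 : ∀ g : G, (¬ ∃ y : H, P g y) → z.coeff g = 0 := by
    intro g hg
    show (if h : ∃ y : H, P g y then w.coeff h.choose else 0) = _
    rw [dif_neg hg]
  have hcongr : ∀ g g' : G, (∀ y : H, P g y ↔ P g' y) → z.coeff g = z.coeff g' := by
    intro g g' h
    by_cases hg : ∃ y : H, P g y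
    · obtain ⟨y, hy⟩ := hg
      rw [hz g y hy, hz g' y ((h y).mp hy)]
    · rw [hz0 g hg, hz0 g' fun ⟨y, hy⟩ => hg ⟨y, (h y).mpr hy⟩]
  refine ⟨z, ?_, ?_, ?_, ?_⟩
  · intro g hg
    refine hz0 g ?_
    rintro ⟨y, hy, κ, hκ, rfl⟩
    exact hg (K.mul_mem (K.mul_mem hκ hy) (K.inv_mem hκ))
  · intro a ha g
    refine hcongr _ _ fun y => ?_
    constructor
    · rintro ⟨hy, κ, hκ, h⟩
      refine ⟨hy, a⁻¹ * κ, K.mul_mem (K.inv_mem ha) hκ, ?_⟩
      rw [← mul_left_cancel_iff (a := a), ← mul_right_cancel_iff (a := a⁻¹), h]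
      group
    · rintro ⟨hy, κ, hκ, h⟩
      refine ⟨hy, a * κ, K.mul_mem ha hκ, ?_⟩
      rw [h]
      group
  · intro r hr g
    refine hcongr _ _ fun y => ?_
    have hry : r * (y : G) = y * r := Subgroup.mem_centralizer_iff.mp y.2 r hr
    have hry' : r⁻¹ * (y : G) = y * r⁻¹ := by
      rw [inv_mul_eq_iff_eq_mul, ← mul_assoc, hry, mul_inv_cancel_right]
    constructor
    · rintro ⟨hy, κ, hκ, h⟩
      refine ⟨hy, r⁻¹ * κ * r, by simpa using hKn.conj_mem _ hκ r⁻¹, ?_⟩
      rw [← mul_left_cancel_iff (a := r), ← mul_right_cancel_iff (a := r⁻¹), h]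
      calc κ * (y : G) * κ⁻¹ = κ * (y * r) * r⁻¹ * κ⁻¹ := by group
        _ = κ * (r * y) * r⁻¹ * κ⁻¹ := by rw [hry]
        _ = r * (r⁻¹ * κ * r * y * (r⁻¹ * κ * r)⁻¹) * r⁻¹ := by group
    · rintro ⟨hy, κ, hκ, h⟩
      refine ⟨hy, r * κ * r⁻¹, hKn.conj_mem _ hκ r, ?_⟩
      rw [h]
      calc r * (κ * (y : G) * κ⁻¹) * r⁻¹ = r * κ * (y * r⁻¹) * r * κ⁻¹ * r⁻¹ := by group
        _ = r * κ * (r⁻¹ * y) * r * κ⁻¹ * r⁻¹ := by rw [hry']
        _ = r * κ * r⁻¹ * y * (r * κ * r⁻¹)⁻¹ := by group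
  · refine ext_coeff fun h => ?_
    rw [coeff_br]
    by_cases hh : (h : G) ∈ K
    · exact hz _ h ⟨hh, 1, K.one_mem, by group⟩
    · rw [hw h hh]
      refine hz0 _ ?_
      rintro ⟨y, hy, κ, hκ, h'⟩
      exact hh (h' ▸ K.mul_mem (K.mul_mem hκ hy) (K.inv_mem hκ))

end Alg

section Res

variable {G : Type u} [Group G] [Finite G] {p : ℕ} [Fact p.Prime] {M : Ideal AlgInt} [M.IsPrime]

/-- On the idempotent of the block `{θ}` of `K` the `K`-invariant elements supported on `K` are
scalars up to nilpotent elements. -/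
theorem exists_nil (hM : IsPModular p M) {K : Subgroup G} {θ : IrrCharacter K}
    (hθ : IsPBlock M ({θ} : Set (IrrCharacter K))) (z : MonoidAlgebra (ResField M) G)
    (hz : ∀ g, g ∉ K → z.coeff g = 0) (hzK : IsInv K z) :
    ∃ (c : ResField M) (n : ℕ),
      (z * emb K (idem M {θ}) - c • emb K (idem M {θ})) ^ n = 0 := by
  have h1 : emb K (res K z) = z := H648.CoverAlg.emb_res_of_supp hz
  have h2 : IsCls (res K z) := isCls_res hzK
  have hu := isUnion_of_isPBlock hθ
  refine ⟨lam M (θ : K → ℂ) (res K z), Nat.card (IrrCharacter K), ?_⟩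
  have h3 : (res K z * idem M {θ} - lam M (θ : K → ℂ) (res K z) • idem M {θ}) ^
      Nat.card (IrrCharacter K) = 0 := by
    refine pow_eq_zero_of_lam (isCls_sub (isCls_mul h2 (isCls_idem _))
      (isCls_smul (isCls_idem _) _)) fun χ => ?_
    rw [map_sub, map_smul, lam_mul χ h2 (isCls_idem _), smul_eq_mul]
    by_cases hχ : χ ∈ ({θ} : Set (IrrCharacter K))
    · rw [lam_idem_of_mem hM hu hχ, Set.mem_singleton_iff.mp hχ, sub_self]
    · rw [lam_idem_of_notMem hM hu hχ, mul_zero, mul_zero, sub_self]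
  have h4 := congrArg (emb K) h3
  rw [map_pow, map_sub, map_mul, map_smul, h1, map_zero] at h4
  exact h4

theorem isInv_pow {k : Type*} [Field k] {S : Subgroup G} {x : MonoidAlgebra k G} (hx : IsInv S x)
    (n : ℕ) : IsInv S (x ^ n) := by
  induction n with
  | zero => rw [pow_zero]; exact isInv_one S
  | succ n ih => rw [pow_succ]; exact isInv_mul ih hx

theorem br_pow {k : Type*} [Field k] [CharP k p] {R : Subgroup G} (hR : IsPGroup p R)
    {x : MonoidAlgebra k G} (hx : IsInv R x) (n : ℕ) : br R (x ^ n) = br R x ^ n := by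
  induction n with
  | zero => rw [pow_zero, pow_zero, br_one]
  | succ n ih => rw [pow_succ, pow_succ, br_mul (p := p) hR (isInv_pow hx n) hx, ih]

/-- The Brauer image of the idempotent of an `R`-invariant character of `K`. -/
theorem exists_nil_br (hM : IsPModular p M) {K R : Subgroup G} [hKn : K.Normal]
    (hK : ¬ p ∣ Nat.card K) (hR : IsPGroup p R) {θ : IrrCharacter K}
    (hθ : IsPBlock M ({θ} : Set (IrrCharacter K)))
    (hinv : IsInv R (emb K (idem M ({θ} : Set (IrrCharacter K)))))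
    (w : MonoidAlgebra (ResField M) (Subgroup.centralizer (R : Set G)))
    (hw : ∀ h : Subgroup.centralizer (R : Set G), (h : G) ∉ K → w.coeff h = 0)
    (hw' : ∀ h c : Subgroup.centralizer (R : Set G), (c : G) ∈ K →
      w.coeff (c * h * c⁻¹) = w.coeff h) :
    ∃ (c : ResField M) (n : ℕ), (w * br R (emb K (idem M {θ})) -
      c • br R (emb K (idem M ({θ} : Set (IrrCharacter K))))) ^ n = 0 := by
  have := charP_resField hM
  obtain ⟨z, hz, hzK, hzR, rfl⟩ := exists_lift hK hR w hw hw'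
  obtain ⟨c, n, hc⟩ := exists_nil hM hθ z hz hzK
  refine ⟨c, n, ?_⟩
  have h1 := congrArg (br R) hc
  rw [br_pow (p := p) hR (isInv_sub (isInv_mul hzR hinv) (isInv_smul hinv c)), map_sub, map_smul,
    br_mul (p := p) hR hzR hinv, map_zero] at h1
  exact h1

/-- A scalar up to nilpotents. -/
theorem lam_eq_of_nil {Γ : Type*} [Group Γ] [Finite Γ] {E w : MonoidAlgebra (ResField M) Γ}
    (hE : IsCls E) (hw : IsCls w) {c : ResField M} {n : ℕ} (h : (w * E - c • E) ^ n = 0)
    {φ : IrrCharacter Γ} (hφ : lam M (φ : Γ → ℂ) E = 1) : lam M (φ : Γ → ℂ) w = c := by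
  have h1 := congrArg (lam M (φ : Γ → ℂ)) h
  rw [lam_pow φ (isCls_sub (isCls_mul hw hE) (isCls_smul hE c)), map_sub, map_smul, lam_mul φ hw hE,
    hφ, mul_one, smul_eq_mul, mul_one, map_zero] at h1
  exact sub_eq_zero.mp (eq_zero_of_pow_eq_zero h1)

omit [M.IsPrime] in
/-- Elements of order prime to `p` of `K Q` lie in `K`. -/
theorem mem_of_isPRegular {K L Q : Subgroup G} [K.Normal] (hQ : IsPGroup p Q) (hL : L = K ⊔ Q)
    {x : G} (hxL : x ∈ L) (hx : IsPRegular p x) : x ∈ K := by
  let π : G →* G ⧸ K := QuotientGroup.mk' K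
  have hker : ∀ g : G, π g = 1 ↔ g ∈ K := fun g => QuotientGroup.eq_one_iff g
  have hLmap : L.map π = Q.map π := by
    rw [hL, Subgroup.map_sup]
    have : K.map π = ⊥ := by
      rw [Subgroup.map_eq_bot_iff]
      intro k hk
      exact (hker k).mpr hk
    rw [this, bot_sup_eq]
  have hcop : (orderOf x).Coprime p := ((Nat.Prime.coprime_iff_not_dvd Fact.out).2 hx).symm
  rw [← hker]
  refine PConstrGrp.coprime_orderOf_card (hQ.map π)
    (Nat.Coprime.coprime_dvd_left (orderOf_map_dvd π x) hcop) ?_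
  rw [← hLmap]
  exact ⟨x, hxL, rfl⟩

/-- All blocks of `C_G(R)` over the Brauer image of the idempotent of `θ` are equal. -/
theorem sameBlock_of_lam_br (hM : IsPModular p M) {K L Q R : Subgroup G} [hKn : K.Normal]
    [hLn : L.Normal] (hK : ¬ p ∣ Nat.card K) (hQ : IsPGroup p Q) (hL : L = K ⊔ Q)
    (hC : Subgroup.centralizer (Q : Set G) ≤ L) (hR : IsPGroup p R)
    (hRQ : R ≤ Subgroup.normalizer (Q : Set G)) {θ : IrrCharacter K}
    (hθ : IsPBlock M ({θ} : Set (IrrCharacter K)))
    (hcls : IsCls (emb K (idem M ({θ} : Set (IrrCharacter K)))))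
    (hone : (idem M ({θ} : Set (IrrCharacter K))).coeff 1 ≠ 0)
    {φ φ' : IrrCharacter (Subgroup.centralizer (R : Set G))}
    (hφ : lam M (φ : Subgroup.centralizer (R : Set G) → ℂ)
      (br R (emb K (idem M ({θ} : Set (IrrCharacter K))))) = 1)
    (hφ' : lam M (φ' : Subgroup.centralizer (R : Set G) → ℂ)
      (br R (emb K (idem M ({θ} : Set (IrrCharacter K))))) = 1) :
    SameBlock M (φ : Subgroup.centralizer (R : Set G) → ℂ)
      (φ' : Subgroup.centralizer (R : Set G) → ℂ) := by
  classical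
  have := charP_resField hM
  set e : MonoidAlgebra (ResField M) G := emb K (idem M ({θ} : Set (IrrCharacter K))) with he
  have hee : e * e = e := by
    rw [he, ← map_mul, idem_mul_self hM (isUnion_of_isPBlock hθ)]
  let H : Subgroup G := Subgroup.centralizer (R : Set G)
  set E : MonoidAlgebra (ResField M) H := br R e with hEdef
  have hE : IsCls E := isCls_br_of_isCls hcls
  have hEE : E * E = E := by
    rw [hEdef, ← br_mul (p := p) hR (isInv_of_isCls hcls _) (isInv_of_isCls hcls _), hee]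
  have hEsupp : ∀ h : H, (h : G) ∉ K → E.coeff h = 0 := by
    intro h hh
    rw [hEdef, coeff_br, he, coeff_emb_of_notMem _ hh]
  have hE1 : E.coeff 1 ≠ 0 := by
    rw [hEdef, coeff_br, he, Subgroup.coe_one, coeff_emb_of_mem _ K.one_mem]
    exact hone
  have keyH : ∀ ψ ψ' : IrrCharacter H, lam M (ψ : H → ℂ) E = 1 → lam M (ψ' : H → ℂ) E = 1 →
      ∀ x : H, (x : G) ∈ K → lam M (ψ : H → ℂ) (clsSum M x) = lam M (ψ' : H → ℂ) (clsSum M x) := by
    intro ψ ψ' hψ hψ' x hx
    obtain ⟨c, n, hc⟩ := exists_nil_br hM hK hR hθ (isInv_of_isCls hcls _) (clsSum M x) (by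
      intro h hh
      rw [coeff_clsSum, if_neg]
      intro hcj
      obtain ⟨a, rfl⟩ := isConj_iff.mp hcj
      exact hh (hKn.conj_mem _ hx (a : G))) (by
      intro h c _
      exact isCls_clsSum x h c)
    rw [lam_eq_of_nil hE (isCls_clsSum x) hc hψ, lam_eq_of_nil hE (isCls_clsSum x) hc hψ']
  have keyN : ∀ (N : Subgroup H), (∀ h : H, (h : G) ∈ K → h ∈ N) → ∀ ψ ψ' : IrrCharacter N,
      lam M (ψ : N → ℂ) (res N E) = 1 → lam M (ψ' : N → ℂ) (res N E) = 1 →
      ∀ x : N, ((x : H) : G) ∈ K →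
        lam M (ψ : N → ℂ) (clsSum M x) = lam M (ψ' : N → ℂ) (clsSum M x) := by
    intro N hKN ψ ψ' hψ hψ' x hx
    have hEN : emb N (res N E) = E :=
      H648.CoverAlg.emb_res_of_supp fun h hh => hEsupp h fun hhK => hh (hKN h hhK)
    obtain ⟨c, n, hc⟩ := exists_nil_br hM hK hR hθ (isInv_of_isCls hcls _) (emb N (clsSum M x)) (by
      intro h hh
      by_cases hN : h ∈ N
      · rw [coeff_emb_of_mem _ hN, coeff_clsSum, if_neg]
        intro hcj
        obtain ⟨a, ha⟩ := isConj_iff.mp hcj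
        have ha' : h = (a : H) * x * (a : H)⁻¹ := congrArg (fun z : N => (z : H)) ha.symm
        exact hh (ha' ▸ hKn.conj_mem _ hx ((a : H) : G))
      · rw [coeff_emb_of_notMem _ hN]) (by
      intro h c hc
      exact isInv_emb (isCls_clsSum x) c (hKN c hc) h)
    rw [← he, ← hEdef, ← hEN, ← map_mul, ← map_smul, ← map_sub, ← map_pow] at hc
    have hc' := emb_injective N (hc.trans (map_zero _).symm)
    have hNE : IsCls (res N E) := isCls_res (isInv_of_isCls hE _)
    rw [lam_eq_of_nil hNE (isCls_clsSum x) hc' hψ, lam_eq_of_nil hNE (isCls_clsSum x) hc' hψ']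
  have key0 : ∀ ψ : IrrCharacter H, lam M (ψ : H → ℂ) E = 1 → ∀ x : H, IsPRegular p x →
      (x : G) ∉ K → lam M (ψ : H → ℂ) (clsSum M x) = 0 := by
    intro ψ hψ x hxreg hxK
    let N : Subgroup H := L.subgroupOf H
    have hKL : K ≤ L := by rw [hL]; exact le_sup_left
    have hQL : Q ≤ L := by rw [hL]; exact le_sup_right
    have hKN : ∀ h : H, (h : G) ∈ K → h ∈ N := fun h hh => hKL hh
    have hEN : emb N (res N E) = E :=
      H648.CoverAlg.emb_res_of_supp fun h hh => hEsupp h fun hhK => hh (hKN h hhK)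
    have hNE : IsCls (res N E) := isCls_res (isInv_of_isCls hE _)
    have hNEE : res N E * res N E = res N E := by
      refine emb_injective N ?_
      rw [map_mul, hEN, hEE]
    have hNE0 : res N E ≠ 0 := by
      intro h0
      apply hE1
      have := congrArg (fun z => z.coeff (1 : N)) h0
      simpa using this
    set c : Set (IrrCharacter N) := suppSet M (res N E) with hc
    have hcE : res N E = idem M c := eq_idem_suppSet hM hNE hNEE
    have hcB : IsPBlock M c := by
      obtain ⟨ξ, hξ⟩ := exists_lam_eq_one hNE hNEE hNE0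
      refine ⟨ξ, ?_⟩
      ext ξ'
      constructor
      · intro hξ'
        have := Fintype.ofFinite N
        refine (Blocks.PRegular.sameBlock_iff_of_isPRegular hM ξ ξ').mpr fun y hy => ?_
        have hyK : ((y : H) : G) ∈ K := by
          refine mem_of_isPRegular hQ hL (x := ((y : H) : G)) y.2 ?_
          unfold IsPRegular at hy ⊢
          rwa [Subgroup.orderOf_coe, Subgroup.orderOf_coe]
        have h1 := keyN N hKN ξ ξ' hξ hξ' y hyK
        rw [lam_clsSum, lam_clsSum] at h1
        exact (redC_eq_iff (H649.memLocalRing_centralChar ξ y)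
          (H649.memLocalRing_centralChar ξ' y)).mp h1
      · intro hξ'
        exact isUnion_suppSet (M := M) (res N E) ξ hξ ξ' hξ'
    have hBψ : IsPBlock M (blockOf M (ψ : H → ℂ)) := Blocks.Basic.isPBlock_blockOf ψ
    have hψB : ψ ∈ blockOf M (ψ : H → ℂ) := Blocks.Basic.mem_blockOf_self ψ
    have hEi : E * idem M (blockOf M (ψ : H → ℂ)) = idem M (blockOf M (ψ : H → ℂ)) := by
      have h1 : blockOf M (ψ : H → ℂ) ⊆ suppSet M E := fun χ hχ =>
        isUnion_suppSet (M := M) E ψ hψ χ hχ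
      conv_lhs => rw [eq_idem_suppSet hM hE hEE]
      rw [idem_mul_idem hM (isUnion_suppSet E) (isUnion_of_isPBlock hBψ),
        Set.inter_eq_right.mpr h1]
    have hne : idem M (blockOf M (ψ : H → ℂ)) ≠ 0 :=
      idem_ne_zero hM (isUnion_of_isPBlock hBψ) ⟨ψ, hψB⟩
    let QH : Subgroup H := Q.subgroupOf H
    have hQH : IsPGroup p QH := hQ.comap_subtype
    have hQN : QH ≤ N := fun h hh => hQL hh
    have hbr : br QH (idem M (blockOf M (ψ : H → ℂ))) ≠ 0 := by
      intro h0
      refine hne (H648.CoverAlg.eq_zero_of_br N hM hQH hQN hcB ?_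
        (isInv_of_isCls (isCls_idem _) _) (idem_mul_self hM (isUnion_of_isPBlock hBψ)) ?_ h0)
      · rw [← hcE]
        intro h1
        apply hE1
        have := congrArg (fun z => z.coeff 1) h1
        simpa using this
      · rw [← hcE, hEN, hEi]
    have hbcls : IsCls (br QH (idem M (blockOf M (ψ : H → ℂ)))) :=
      isCls_br_of_isCls (isCls_idem _)
    obtain ⟨ξ, hξ⟩ := exists_lam_eq_one hbcls (by
      rw [← br_mul (p := p) hQH (isInv_of_isCls (isCls_idem _) _)
        (isInv_of_isCls (isCls_idem _) _), idem_mul_self hM (isUnion_of_isPBlock hBψ)]) hbr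
    obtain ⟨B', hB', h1, h2, h3⟩ := exists_block_of_pair hM hQH ξ
    have hBB : blockOf M (ψ : H → ℂ) = B' := h2 _ hBψ hξ
    rw [← h3 ψ (hBB ▸ hψB) _ (isCls_clsSum x)]
    have h4 : br QH (clsSum M x) = 0 := by
      refine ext_coeff fun h => ?_
      rw [coeff_br, coeff_clsSum, if_neg, MonoidAlgebra.coeff_zero, Finsupp.zero_apply]
      intro hcj
      obtain ⟨a, ha⟩ := isConj_iff.mp hcj
      have hord : orderOf ((h : H) : G) = orderOf x := by
        rw [Subgroup.orderOf_coe, ← ha]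
        exact MulEquiv.orderOf_eq (MulAut.conj a) x
      have hhK : ((h : H) : G) ∈ K := by
        refine PConstrGrp.mem_of_centralizes hK hQ hL hR hRQ hC (h : H).2 ?_ ?_
        · rw [hord]
          exact ((Nat.Prime.coprime_iff_not_dvd Fact.out).2 hxreg).symm
        · intro u hu huR
          have h5 := Subgroup.mem_centralizer_iff.mp h.2 (⟨u, huR⟩ : H) hu
          exact (congrArg (fun z : H => (z : G)) h5).symm
      apply hxK
      have h6 : (x : G) = (a : G)⁻¹ * (h : H) * a := by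
        rw [← ha]
        push_cast
        group
      rw [h6]
      simpa using hKn.conj_mem _ hhK (a : G)⁻¹
    rw [h4, map_zero]
  have := Fintype.ofFinite H
  refine (Blocks.PRegular.sameBlock_iff_of_isPRegular hM φ φ').mpr fun x hx => ?_
  have h1 : lam M (φ : H → ℂ) (clsSum M x) = lam M (φ' : H → ℂ) (clsSum M x) := by
    by_cases hxK : (x : G) ∈ K
    · exact keyH φ φ' hφ hφ' x hxK
    · rw [key0 φ hφ x hx hxK, key0 φ' hφ' x hx hxK]
  rw [lam_clsSum, lam_clsSum] at h1
  exact (redC_eq_iff (H649.memLocalRing_centralChar φ x)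
    (H649.memLocalRing_centralChar φ' x)).mp h1

end Res

end Cfsg.Agent.H646.PConstr
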