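import Mathlib
import Cfsg.Agent.H644.Trace
import Cfsg.Agent.H646.RankIdem
import Cfsg.Agent.H646.PermModule

/-!
# The block algebra as a module for `S × S`

`S` is a `p`-subgroup of `G`, `S × S` acts on `G` by `(s, t) • g = s g t⁻¹`.

* `isPGroup_prod`, `equi_convK`;
* `card_le_of_fixed`: a subgroup `T` of `S × S` with a `T`-fixed vector of `K[G] b` not vanishing
  at some `T`-fixed point of `G` has order at most the order of a defect group.
-/

set_option autoImplicit false
set_option linter.unusedSectionVars false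

namespace Cfsg.Agent.H646.TwoSided

open Cfsg
open Cfsg.Agent.Blocks.Local Cfsg.Agent.H644

variable {G : Type*} [Group G]

/-- The two-sided action. -/
@[reducible] def twoSided (S : Subgroup G) : MulAction (S × S) G where
  smul st g := (st.1 : G) * g * (st.2 : G)⁻¹
  one_smul g := by
    show ((1 : S) : G) * g * ((1 : S) : G)⁻¹ = g
    simp
  mul_smul a b g := by
    show ((a.1 * b.1 : S) : G) * g * ((a.2 * b.2 : S) : G)⁻¹ =
      (a.1 : G) * ((b.1 : G) * g * (b.2 : G)⁻¹) * (a.2 : G)⁻¹
    push_cast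
    group

theorem twoSided_smul (S : Subgroup G) (st : S × S) (g : G) :
    letI := twoSided S
    st • g = (st.1 : G) * g * (st.2 : G)⁻¹ := rfl

theorem isPGroup_prod {p : ℕ} {S : Subgroup G} (hS : IsPGroup p S) : IsPGroup p (S × S) := by
  rintro ⟨s, t⟩
  obtain ⟨m, hm⟩ := hS s
  obtain ⟨n, hn⟩ := hS t
  refine ⟨m + n, ?_⟩
  rw [Prod.pow_mk, pow_add]
  refine Prod.ext ?_ ?_
  · show s ^ (p ^ m * p ^ n) = 1
    rw [pow_mul, hm, one_pow]
  · show t ^ (p ^ m * p ^ n) = 1
    rw [mul_comm, pow_mul, hn, one_pow]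

variable [Fintype G] {p : ℕ} {M : Ideal AlgInt} [M.IsPrime]

theorem equi_convK (S : Subgroup G) {u : MonoidAlgebra (ResField M) G} (hu : IsCls u) :
    letI := twoSided S
    PermModule.Equi (S × S) (RankIdem.convK u) := by
  letI := twoSided S
  intro g x y
  rw [RankIdem.convK_apply, RankIdem.convK_apply, twoSided_smul, twoSided_smul,
    ← hu (y⁻¹ * x) (g.2 : G)]
  congr 1
  group

theorem isInv_emb_centralizer {k : Type*} [Field k] (Q : Subgroup G)
    (y : MonoidAlgebra k (Subgroup.centralizer (Q : Set G))) : IsInv Q (emb _ y) := by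
  intro u hu g
  by_cases hg : g ∈ Subgroup.centralizer (Q : Set G)
  · have h1 : u * g = g * u := Subgroup.mem_centralizer_iff.mp hg u hu
    rw [h1, mul_inv_cancel_right]
  · rw [coeff_emb_of_notMem _ hg, coeff_emb_of_notMem]
    intro h
    apply hg
    rw [Subgroup.mem_centralizer_iff] at h ⊢
    have h0 := h u hu
    have h1 : g * u = u * g := by
      have h2 : u * (u * g * u⁻¹) = u * g * u⁻¹ * u := h0
      rw [inv_mul_cancel_right] at h2
      have h3 : u * g * u⁻¹ = g := mul_left_cancel h2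
      rw [mul_inv_eq_iff_eq_mul] at h3
      exact h3.symm
    have h4 : u * g * u⁻¹ = g := by rw [← h1, mul_inv_cancel_right]
    rw [h4] at h
    exact h

/-- Subgroups of `S × S` seen by the block algebra are at most as large as a defect group. -/
theorem card_le_of_fixed [Fact p.Prime] (hM : IsPModular p M) {B : Set (IrrCharacter G)}
    (hB : IsPBlock M B) {D : Subgroup G} (hD : IsDefectGroup p M B D) {S : Subgroup G}
    (hS : IsPGroup p S) (T : Subgroup (S × S)) (v : G → ResField M) (x : G)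
    (hv : (RankIdem.convK (idem M B)).mulVec v = v)
    (hvT : ∀ t ∈ T, ∀ y : G, v ((t.1 : G) * y * (t.2 : G)⁻¹) = v y)
    (hx : ∀ t ∈ T, (t.1 : G) * x * (t.2 : G)⁻¹ = x) (hvx : v x ≠ 0) :
    Nat.card T ≤ Nat.card D := by
  have := charP_resField hM
  let f : S × S →* G := S.subtype.comp (MonoidHom.snd S S)
  let T₂ : Subgroup G := T.map f
  have hT₂p : IsPGroup p T₂ := ((isPGroup_prod hS).to_subgroup T).map f
  have hinj : Set.InjOn f (T : Set (S × S)) := by
    rintro ⟨s, t⟩ hst ⟨s', t'⟩ hst' h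
    have h1 : t = t' := Subtype.ext h
    subst h1
    have h2 := hx _ hst
    have h3 := hx _ hst'
    simp only at h2 h3
    have h4 : (s : G) = s' := mul_right_cancel (mul_right_cancel (h2.trans h3.symm))
    rw [Prod.mk.injEq]
    exact ⟨Subtype.ext h4, rfl⟩
  have hcard : Nat.card T = Nat.card T₂ := by
    refine Nat.card_congr (Equiv.ofBijective (fun t : T => (⟨f t, t, t.2, rfl⟩ : T₂)) ⟨?_, ?_⟩)
    · intro a b hab
      exact Subtype.ext (hinj a.2 b.2 (congrArg (fun z : T₂ => (z : G)) hab))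
    · rintro ⟨_, t, ht, rfl⟩
      exact ⟨⟨t, ht⟩, rfl⟩
  let v' : MonoidAlgebra (ResField M) G := mkA v
  have hv' : v' * idem M B = v' := by
    refine ext_coeff fun g => ?_
    have h1 := congrFun (RankIdem.convK_mulVec (idem M B) v') g
    rw [← h1]
    exact congrFun hv g
  let w : MonoidAlgebra (ResField M) G := MonoidAlgebra.single x⁻¹ 1 * v'
  have hwc : ∀ g, w.coeff g = v (x * g) := by
    intro g
    show (MonoidAlgebra.single x⁻¹ 1 * v').coeff g = _
    rw [MonoidAlgebra.coeff_single_mul_apply, one_mul, inv_inv]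
    rfl
  have hw : w * idem M B = w := by
    show MonoidAlgebra.single x⁻¹ 1 * v' * idem M B = MonoidAlgebra.single x⁻¹ 1 * v'
    rw [mul_assoc, hv']
  have hwinv : IsInv T₂ w := by
    rintro _ ⟨t, ht, rfl⟩ g
    rw [hwc, hwc]
    have h1 := hx t ht
    have h2 : x * (t.2 : G) = t.1 * x := by
      rw [mul_inv_eq_iff_eq_mul] at h1
      exact h1.symm
    rw [← hvT t ht (x * g)]
    congr 1
    show x * ((t.2 : G) * g * (t.2 : G)⁻¹) = _
    rw [← mul_assoc, ← mul_assoc, h2]
    group
  have hbinv : IsInv T₂ (idem M B) := isInv_of_isCls (isCls_idem B) _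
  have hbr : br T₂ (idem M B) ≠ 0 := by
    intro h0
    have h1 := br_mul (p := p) hT₂p hwinv hbinv
    rw [hw, h0, mul_zero] at h1
    have h2 := congrArg (fun z => z.coeff 1) h1
    simp only [coeff_br, MonoidAlgebra.coeff_zero, Finsupp.zero_apply, Subgroup.coe_one, hwc,
      mul_one] at h2
    exact hvx h2
  obtain ⟨D', hD', hle⟩ := (br_idem_ne_zero_iff hM hB hT₂p).mp hbr
  obtain ⟨t, ht⟩ := exists_conj_of_isDefectGroup hM hB hD hD'
  rw [hcard]
  refine (Subgroup.card_le_of_le hle).trans ?_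
  rw [← ht]
  exact Nat.le_of_dvd Nat.card_pos (Subgroup.card_map_dvd _ _)

end Cfsg.Agent.H646.TwoSided
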